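import Cfsg.Agent.H568.EP.Ord

/-!
# S3499: the primes dividing the order of an orthogonal group (helper762)

* `prime_Om`: a prime `s`, not dividing `q = |F|`, dividing the order of `Q = Ω(V) / scalars`, `n = dim V ≥ 7`, divides
  `q ^ (2 i) - 1` for some `i` with `2 i + 1 ≤ n`, or `n = 2 k` and `s` divides `q ^ k - 1` or `q ^ k + 1`;
* `prime_Om'`: in particular `s ∣ q ^ (2 i) - 1` for some `1 ≤ i`, `2 i ≤ n`.
-/

set_option autoImplicit false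

namespace Cfsg.Agent.H762.EPV

open Cfsg Cfsg.Agent.OrdDiv Cfsg.Agent.H419.EP Cfsg.Agent.H436 Cfsg.Agent.H568.EP

theorem dvd_prB {q k s : ℕ} (hs : s.Prime) (h : s ∣ prB q k) : ∃ i, 1 ≤ i ∧ i ≤ k ∧ s ∣ q ^ (2 * i) - 1 := by
  obtain ⟨a, ha, h1⟩ := (Prime.dvd_prod_iff hs.prime).1 h
  obtain ⟨i, hi, rfl⟩ := List.mem_map.1 ha
  exact ⟨i + 1, by omega, by have := List.mem_range.1 hi; omega, h1⟩

universe u

variable {Q : Type u} [Group Q] {F : Type} [Field F] [Fintype F]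

theorem prime_Om {ι : Type} [Fintype ι] [DecidableEq ι] {Qf : (ι → F) → F}
    (hQ : Cfsg.Geo.IsNondegenerateQuadraticForm Qf) (hn : 7 ≤ Fintype.card ι) (m : Model Q (Cfsg.Geo.omegaGL Qf))
    {s : ℕ} (hs : s.Prime) (hsQ : s ∣ Nat.card Q) (hsq : ¬ s ∣ Fintype.card F) :
    (∃ i, 1 ≤ i ∧ 2 * i + 1 ≤ Fintype.card ι ∧ s ∣ Fintype.card F ^ (2 * i) - 1) ∨
    (∃ k, Fintype.card ι = 2 * k ∧ (s ∣ Fintype.card F ^ k - 1 ∨ s ∣ Fintype.card F ^ k + 1)) := by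
  have hno : ∀ e : ℕ, ¬ s ∣ Fintype.card F ^ e := fun e h => hsq (hs.dvd_of_dvd_pow h)
  rcases om_named hQ hn m with ⟨k, hk, h⟩ | ⟨k, hk, h | h⟩
  · left
    have h1 : 2 * Nat.card Q = Fintype.card F ^ (k ^ 2) * prB (Fintype.card F) k := h.eq
    rcases hs.dvd_mul.1 (h1 ▸ Dvd.dvd.mul_left hsQ 2) with h2 | h2
    · exact absurd h2 (hno _)
    · obtain ⟨i, hi1, hi2, hi3⟩ := dvd_prB hs h2
      exact ⟨i, hi1, by omega, hi3⟩
  · have h1 : Nat.gcd 4 (Fintype.card F ^ k - 1) * Nat.card Q = Fintype.card F ^ (k * (k - 1)) *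
        ((Fintype.card F ^ k - 1) * prB (Fintype.card F) (k - 1)) := h.eq
    rcases hs.dvd_mul.1 (h1 ▸ Dvd.dvd.mul_left hsQ _) with h2 | h2
    · exact absurd h2 (hno _)
    rcases hs.dvd_mul.1 h2 with h3 | h3
    · exact Or.inr ⟨k, hk, Or.inl h3⟩
    · obtain ⟨i, hi1, hi2, hi3⟩ := dvd_prB hs h3
      exact Or.inl ⟨i, hi1, by omega, hi3⟩
  · have h1 : Nat.gcd 4 (Fintype.card F ^ k + 1) * Nat.card Q = Fintype.card F ^ (k * (k - 1)) *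
        ((Fintype.card F ^ k + 1) * prB (Fintype.card F) (k - 1)) := h.eq
    rcases hs.dvd_mul.1 (h1 ▸ Dvd.dvd.mul_left hsQ _) with h2 | h2
    · exact absurd h2 (hno _)
    rcases hs.dvd_mul.1 h2 with h3 | h3
    · exact Or.inr ⟨k, hk, Or.inr h3⟩
    · obtain ⟨i, hi1, hi2, hi3⟩ := dvd_prB hs h3
      exact Or.inl ⟨i, hi1, by omega, hi3⟩

theorem prime_Om' {ι : Type} [Fintype ι] [DecidableEq ι] {Qf : (ι → F) → F}
    (hQ : Cfsg.Geo.IsNondegenerateQuadraticForm Qf) (hn : 7 ≤ Fintype.card ι) (m : Model Q (Cfsg.Geo.omegaGL Qf))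
    {s : ℕ} (hs : s.Prime) (hsQ : s ∣ Nat.card Q) (hsq : ¬ s ∣ Fintype.card F) :
    ∃ i, 1 ≤ i ∧ 2 * i ≤ Fintype.card ι ∧ s ∣ Fintype.card F ^ (2 * i) - 1 := by
  rcases prime_Om hQ hn m hs hsQ hsq with ⟨i, h1, h2, h3⟩ | ⟨k, h1, h2⟩
  · exact ⟨i, h1, by omega, h3⟩
  · refine ⟨k, by omega, by omega, ?_⟩
    rw [mul_comm, pow_mul, ← one_pow 2, Nat.sq_sub_sq]
    rcases h2 with h2 | h2
    · exact Dvd.dvd.mul_left (by simpa using h2) _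
    · exact Dvd.dvd.mul_right (by simpa using h2) _

end Cfsg.Agent.H762.EPV
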